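import Cfsg.Agent.Lib.Helper21.Uni.Defs
import Mathlib

set_option autoImplicit false

namespace Cfsg.Agent.Lib.Helper1.Uni

open Cfsg.Agent.Lib.Helper21.Uni

theorem M4_even_sum {μ : Multiset ℕ} (hev : ∀ e ∈ μ, Even e) : Even μ.sum := by
  rw [even_iff_two_dvd]
  exact Multiset.dvd_sum (fun x hx => even_iff_two_dvd.1 (hev x hx))

/-- M4 -/
theorem sub_of_all_even {μ : Multiset ℕ} (hA : Adm μ) (hev : ∀ e ∈ μ, Even e) {e : ℕ} (he : e ∈ μ)
    (he0 : 0 < e) {m : ℕ} (hme : Even m) :
    ∃ μ₀ : Multiset ℕ, μ = {e, e} + μ₀ ∧ Adm ({e + 1, e - 1} + μ₀) ∧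
      ∀ ν' : Multiset ℕ, ν' ≤ {e + 1, e - 1} + μ₀ → ν'.sum = m → Adm ν' →
        ∃ ν : Multiset ℕ, ν ≤ μ ∧ ν.sum = m ∧ Adm ν := by
  have hee : Even e := hev e he
  have hc1 : 1 ≤ μ.count e := Multiset.one_le_count_iff_mem.2 he
  have hc2 : 2 ≤ μ.count e := by
    obtain ⟨t, ht⟩ := hA e hee
    omega
  have hle : Multiset.replicate 2 e ≤ μ := Multiset.le_count_iff_replicate_le.1 hc2
  obtain ⟨μ₀, rfl⟩ := Multiset.le_iff_exists_add.1 hle
  have hrep : Multiset.replicate 2 e = ({e, e} : Multiset ℕ) := rfl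
  have hev0 : ∀ x ∈ μ₀, Even x := fun x hx => hev x (Multiset.mem_add.2 (Or.inr hx))
  have hp : ({e + 1, e - 1} : Multiset ℕ) + μ₀ = (e + 1) ::ₘ (e - 1) ::ₘ μ₀ := by
    rw [Multiset.insert_eq_cons, Multiset.cons_add, Multiset.singleton_add]
  have hne1 : ∀ x, Even x → x ≠ e + 1 := by
    rintro x ⟨s, rfl⟩ h
    obtain ⟨t, rfl⟩ := hee
    omega
  have hne2 : ∀ x, Even x → x ≠ e - 1 := by
    rintro x ⟨s, rfl⟩ h
    obtain ⟨t, rfl⟩ := hee
    omega
  have hA0 : Adm μ₀ := by
    intro x hx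
    have h := hA x hx
    rw [Multiset.count_add, Multiset.count_replicate] at h
    split_ifs at h with hxe
    · obtain ⟨t, ht⟩ := h
      exact ⟨t - 1, by omega⟩
    · simpa using h
  refine ⟨μ₀, by rw [hrep], ?_, ?_⟩
  · intro x hx
    rw [hp, Multiset.count_cons_of_ne (hne1 x hx), Multiset.count_cons_of_ne (hne2 x hx)]
    exact hA0 x hx
  · intro ν' hν' hs hAν
    rw [hp] at hν'
    by_cases h1 : (e + 1) ∈ ν'
    · obtain ⟨ν₁, rfl⟩ := Multiset.exists_cons_of_mem h1
      rw [Multiset.cons_le_cons_iff] at hν'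
      by_cases h2 : (e - 1) ∈ ν₁
      · obtain ⟨ν₂, rfl⟩ := Multiset.exists_cons_of_mem h2
        rw [Multiset.cons_le_cons_iff] at hν'
        refine ⟨Multiset.replicate 2 e + ν₂, by gcongr, ?_, ?_⟩
        · rw [← hs]
          simp only [Multiset.sum_add, Multiset.sum_replicate, Multiset.sum_cons, smul_eq_mul]
          omega
        · intro x hx
          have h := hAν x hx
          rw [Multiset.count_cons_of_ne (hne1 x hx), Multiset.count_cons_of_ne (hne2 x hx)] at h
          rw [Multiset.count_add, Multiset.count_replicate]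
          split_ifs with hxe
          · exact Even.add (by decide) h
          · simpa using h
      · exfalso
        rw [Multiset.le_cons_of_notMem h2] at hν'
        have hsum : Even ν₁.sum := M4_even_sum (fun x hx => hev0 x (Multiset.mem_of_le hν' hx))
        rw [Multiset.sum_cons] at hs
        obtain ⟨a, ha⟩ := hsum
        obtain ⟨b, hb⟩ := hme
        obtain ⟨c, hc⟩ := hee
        omega
    · rw [Multiset.le_cons_of_notMem h1] at hν'
      by_cases h2 : (e - 1) ∈ ν'
      · exfalso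
        obtain ⟨ν₁, rfl⟩ := Multiset.exists_cons_of_mem h2
        rw [Multiset.cons_le_cons_iff] at hν'
        have hsum : Even ν₁.sum := M4_even_sum (fun x hx => hev0 x (Multiset.mem_of_le hν' hx))
        rw [Multiset.sum_cons] at hs
        obtain ⟨a, ha⟩ := hsum
        obtain ⟨b, hb⟩ := hme
        obtain ⟨c, hc⟩ := hee
        omega
      · rw [Multiset.le_cons_of_notMem h2] at hν'
        exact ⟨ν', hν'.trans (Multiset.le_add_left _ _), hs, hAν⟩

end Cfsg.Agent.Lib.Helper1.Uni
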