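import Cfsg.Agent.Lib.Helper21.Uni.Defs
import Mathlib

set_option autoImplicit false

namespace Cfsg.Agent.Lib.Helper1.Uni

open Cfsg.Agent.Lib.Helper21.Uni

/-- M5 -/
theorem mod_four_minus {k m : ℕ} (hme : Even m) {ν : Multiset ℕ}
    (hle : ν ≤ 1 ::ₘ 1 ::ₘ Multiset.replicate k 2) (hs : ν.sum = m) (hA : Adm ν)
    (hn : ¬ ∀ e ∈ ν, e = 2) : m % 4 = 2 := by
  by_cases hc : 1 ∈ ν
  · obtain ⟨ν₁, rfl⟩ := Multiset.exists_cons_of_mem hc
    rw [Multiset.cons_le_cons_iff] at hle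
    by_cases hc1 : 1 ∈ ν₁
    · obtain ⟨ν₂, rfl⟩ := Multiset.exists_cons_of_mem hc1
      rw [Multiset.cons_le_cons_iff, Multiset.le_replicate_iff] at hle
      obtain ⟨j, -, rfl⟩ := hle
      have h2 := hA 2 (by decide)
      simp [Multiset.count_cons_of_ne, Multiset.count_replicate] at h2
      simp at hs
      obtain ⟨t, rfl⟩ := h2
      omega
    · rw [Multiset.le_cons_of_notMem hc1, Multiset.le_replicate_iff] at hle
      obtain ⟨j, -, rfl⟩ := hle
      simp at hs
      obtain ⟨t, rfl⟩ := hme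
      omega
  · rw [Multiset.le_cons_of_notMem hc, Multiset.le_cons_of_notMem hc,
      Multiset.le_replicate_iff] at hle
    obtain ⟨j, -, rfl⟩ := hle
    exact absurd (fun e he => Multiset.eq_of_mem_replicate he) hn

end Cfsg.Agent.Lib.Helper1.Uni
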